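import Mathlib
import Cfsg.Prelude.Def_ConjugacyFunctors

/-!
# Isomorphism-invariant functors: basic facts on `inducedFunctor`

For `hW : IsCharPFunctor p W`: `inducedFunctor W P ≤ P`, `inducedFunctor W P ≠ ⊥` for `P ≠ ⊥`, compatibility with
homomorphisms injective on `P`; sections of a fixed group as homomorphic images of subgroups.
-/

set_option autoImplicit false

universe u

namespace Cfsg.Agent.H41.Functor

open Cfsg

/-- A homomorphism injective on the subgroup `P` gives an isomorphism of `P` onto `P.map f`. -/
noncomputable def equivMapOfInjOn {G G' : Type*} [Group G] [Group G'] (f : G →* G') (P : Subgroup G)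
    (hf : Set.InjOn f P) : P ≃* P.map f :=
  MulEquiv.ofBijective (f.subgroupMap P)
    ⟨fun a b hab => Subtype.ext (hf a.2 b.2 (congrArg Subtype.val hab)), f.subgroupMap_surjective P⟩

theorem coe_equivMapOfInjOn {G G' : Type*} [Group G] [Group G'] (f : G →* G') (P : Subgroup G)
    (hf : Set.InjOn f P) (x : P) : (equivMapOfInjOn f P hf x : G') = f x := rfl

theorem inducedFunctor_def {G : Type u} [Group G] (W : ∀ (Q : Type u) [Group Q], Subgroup Q) (P : Subgroup G) :
    inducedFunctor W P = (W ↥P).map P.subtype := rfl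

theorem inducedFunctor_le {G : Type u} [Group G] (W : ∀ (Q : Type u) [Group Q], Subgroup Q) (P : Subgroup G) :
    inducedFunctor W P ≤ P := by
  rw [inducedFunctor_def]
  exact Subgroup.map_subtype_le _

/-- `W(P)^f = W(P^f)` for a homomorphism `f` injective on the `p`-subgroup `P`. -/
theorem map_inducedFunctor {p : ℕ} (W : ∀ (Q : Type u) [Group Q], Subgroup Q) (hW : IsCharPFunctor.{u} p W)
    {G G' : Type u} [Group G] [Group G'] (f : G →* G') (P : Subgroup G) [Finite P]
    (hf : Set.InjOn f P) (hP : IsPGroup p P) :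
    (inducedFunctor W P).map f = inducedFunctor W (P.map f) := by
  have h1 := hW.2 P (P.map f) hP (equivMapOfInjOn f P hf)
  rw [inducedFunctor_def, inducedFunctor_def, ← h1, Subgroup.map_map, Subgroup.map_map]
  congr 1

theorem inducedFunctor_ne_bot {p : ℕ} (W : ∀ (Q : Type u) [Group Q], Subgroup Q) (hW : IsCharPFunctor.{u} p W)
    {G : Type u} [Group G] (P : Subgroup G) [Finite P]
    (hP : IsPGroup p P) (hP1 : P ≠ ⊥) : inducedFunctor W P ≠ ⊥ := by
  rw [inducedFunctor_def]
  intro h
  rw [Subgroup.map_eq_bot_iff_of_injective _ P.subtype_injective] at h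
  exact hW.1 P hP ((Subgroup.nontrivial_iff_ne_bot P).mpr hP1) h

/-- `H` is a homomorphic image of a subgroup of `G` (so isomorphic to a section of `G`). -/
def IsSection (G : Type u) [Group G] (H : Type u) [Group H] : Prop :=
  ∃ (K : Subgroup G) (f : K →* H), Function.Surjective f

theorem IsSection.refl (G : Type u) [Group G] : IsSection G G :=
  ⟨⊤, Subgroup.subtype _, fun x => ⟨⟨x, trivial⟩, rfl⟩⟩

theorem IsSection.subgroup {G : Type u} [Group G] {H : Type u} [Group H] (h : IsSection G H) (L : Subgroup H) :
    IsSection G L := by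
  obtain ⟨K, f, hf⟩ := h
  refine ⟨(L.comap f).map K.subtype, ?_⟩
  let e : (L.comap f) ≃* (L.comap f).map K.subtype :=
    (L.comap f).equivMapOfInjective K.subtype K.subtype_injective
  let g : (L.comap f) →* L := f.subgroupComap L
  refine ⟨g.comp e.symm.toMonoidHom, ?_⟩
  exact (f.subgroupComap_surjective_of_surjective L hf).comp e.symm.surjective

theorem IsSection.of_surjective {G : Type u} [Group G] {H : Type u} [Group H] (h : IsSection G H)
    {H' : Type u} [Group H'] (φ : H →* H') (hφ : Function.Surjective φ) : IsSection G H' := by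
  obtain ⟨K, f, hf⟩ := h
  exact ⟨K, φ.comp f, hφ.comp hf⟩

theorem IsSection.quotient {G : Type u} [Group G] {H : Type u} [Group H] (h : IsSection G H) (N : Subgroup H)
    [N.Normal] : IsSection G (H ⧸ N) :=
  h.of_surjective (QuotientGroup.mk' N) (QuotientGroup.mk'_surjective N)

/-- a section in the form `K / R` -/
theorem IsSection.exists_equiv {G : Type u} [Group G] {H : Type u} [Group H] (h : IsSection G H) :
    ∃ (K R : Subgroup G) (_ : (R.subgroupOf K).Normal), Nonempty ((K ⧸ R.subgroupOf K) ≃* H) := by
  obtain ⟨K, f, hf⟩ := h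
  have h1 : (f.ker.map K.subtype).subgroupOf K = f.ker := by
    rw [Subgroup.subgroupOf]
    exact Subgroup.comap_map_eq_self_of_injective K.subtype_injective _
  refine ⟨K, f.ker.map K.subtype, ?_, ?_⟩
  · rw [h1]; infer_instance
  · have hn : ((f.ker.map K.subtype).subgroupOf K).Normal := by rw [h1]; infer_instance
    exact ⟨(QuotientGroup.quotientMulEquivOfEq h1).trans (QuotientGroup.quotientKerEquivOfSurjective f hf)⟩

end Cfsg.Agent.H41.Functor
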